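import Cfsg.Agent.H41.J2TC.Ju.RChk0

set_option autoImplicit false
set_option linter.all false

namespace Cfsg.Agent.H41.J2P

open Cfsg.Agent.H35

theorem tju_rall : ∀ p, p < 2080 → tju_rf p = true := by
  apply allR_blocks tju_rf 2080 9 5 _ (by decide)
  intro k hk
  interval_cases k
  · exact tju_rchk_0
  · exact tju_rchk_1
  · exact tju_rchk_2
  · exact tju_rchk_3
  · exact tju_rchk_4

theorem tju_circ_ok : circChk (fullW ju_rws ju_prels) tju_circT 0 tju_ccert = true := by decide +kernel
theorem tju_hc_ok : allR (fun c => hcChk tju_rsw tju_hc1T tju_hc2T c) 2 1 0 = true := by decide +kernel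
theorem tju_h0 : RData.aord (tju_rd.ent 0 1) = 0 := by decide +kernel

end Cfsg.Agent.H41.J2P
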