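import Cfsg.Agent.H41.J2TC.Ju.RTab

set_option autoImplicit false
set_option linter.all false
set_option Elab.async false

namespace Cfsg.Agent.H41.J2P

open Cfsg.Agent.H35

theorem tju_rchk_0 : allR tju_rf 2080 9 (0 * 2 ^ 9) = true := by decide +kernel
theorem tju_rchk_1 : allR tju_rf 2080 9 (1 * 2 ^ 9) = true := by decide +kernel
theorem tju_rchk_2 : allR tju_rf 2080 9 (2 * 2 ^ 9) = true := by decide +kernel
theorem tju_rchk_3 : allR tju_rf 2080 9 (3 * 2 ^ 9) = true := by decide +kernel
theorem tju_rchk_4 : allR tju_rf 2080 9 (4 * 2 ^ 9) = true := by decide +kernel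

end Cfsg.Agent.H41.J2P
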